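import Mathlib
import Cfsg.Agent.Lib.Perm.GeomBaer

/-! The Ostrom–Wagner theorem. -/

set_option autoImplicit false

namespace CfsgLib.Perm

open MulAction

variable {P L : Type*} [Fintype P] [Fintype L] {I : P → L → Prop} {n : ℕ}
variable {G : Type*} [Group G] [MulAction G P] [MulAction G L]

theorem PlaneAct.exists_induced (d : PlaneAct G I n) {H K : Subgroup G}
    {t : G} (e : Ext2 H K t) : ∃ σ : coll (fun (p : FxT H P) (l : FxT H L) => I p.1 l.1),
      σ * σ = 1 ∧ (∀ p : FxT H P, (σ • p).1 = t • p.1) ∧ ∀ l : FxT H L, (σ • l).1 = t • l.1 :=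
  ⟨⟨(Equiv.Perm.subtypePerm (toPerm t) fun _ => e.fx_smul,
    Equiv.Perm.subtypePerm (toPerm t) fun _ => e.fx_smul), fun p l => d.inc t p.1 l.1⟩,
    Subtype.ext (Prod.ext
      (Equiv.ext fun p => Subtype.ext ((mul_smul t t p.1).symm.trans (p.2 _ e.sq)))
      (Equiv.ext fun p => Subtype.ext ((mul_smul t t p.1).symm.trans (p.2 _ e.sq)))),
    fun _ => rfl, fun _ => rfl⟩

/-- planes with a doubly transitive collineation group -/
structure Plane2 (G : Type*) [Group G] [MulAction G P] [MulAction G L] (I : P → L → Prop)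
    (n : ℕ) : Prop extends PlaneAct G I n where
  two : ∀ {x y x' y' : P}, x ≠ y → x' ≠ y' → ∃ g : G, g • x = x' ∧ g • y = y'

namespace Plane2

variable [Finite G]

theorem dual (d : Plane2 G I n) : Plane2 G (fun l p => I p l) n :=
  ⟨d.toPlaneAct.dual, two_trans_of_fix (d.ncard_fix d.inc) d.two⟩

theorem antiflag (d : Plane2 G I n) {x y : P} {l m : L} (h1 : ¬ I x l) (h2 : ¬ I y m) :
    ∃ g : G, g • x = y ∧ g • l = m := by
  have h3 := card_orbits_eq_of_fix (G := G) (X := P × P) (Y := P × L) fun g => by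
    rw [ncard_fix_prod, ncard_fix_prod, d.ncard_fix d.inc]
  obtain ⟨a, ha, -⟩ := d.join x x
  obtain ⟨g, hg⟩ := exists_smul_eq_of_card_orbits_le_two (h3 ▸ card_orbits_prod_le_two d.two)
    (fun z => I z.1 z.2) (fun g z e => (d.inc g _ _).2 e) (y0 := (x, a)) (y1 := (x, l))
    (y2 := (y, m)) ha h1 h2
  exact ⟨g, congrArg Prod.fst hg, congrArg Prod.snd hg⟩

omit [Finite G] in
theorem card_stab_pt (d : Plane2 G I n) {x y : P} (h : x ≠ y) : Nat.card (stabilizer G x) =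
    (n + 1) * n * Nat.card (stabilizer G x ⊓ stabilizer G y : Subgroup G) := by
  rw [card_eq_gorb_mul (stabilizer G x) y]
  congr 1
  have : gorb (stabilizer G x) y = {x}ᶜ := Set.ext fun p =>
    ⟨fun ⟨g, hg, e⟩ e' => h (smul_left_cancel g (hg.trans (e'.symm.trans e.symm))),
      fun hp => d.two h (Ne.symm hp)⟩
  have h1 := Set.ncard_add_ncard_compl ({x} : Set P)
  rw [Set.ncard_singleton, Nat.card_eq_fintype_card, d.card_points x] at h1
  rw [this]
  linarith

theorem card_stab_ln (d : Plane2 G I n) {x : P} {l : L} (h : ¬ I x l) : Nat.card (stabilizer G x) =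
    n * n * Nat.card (stabilizer G x ⊓ stabilizer G l : Subgroup G) := by
  rw [card_eq_gorb_mul (stabilizer G x) l]
  congr 1
  have : gorb (stabilizer G x) l = {m | I x m}ᶜ := Set.ext fun m =>
    ⟨fun ⟨g, hg, e⟩ e' => h (by rw [← d.inc g, hg, e]; exact e'), fun hm => d.antiflag h hm⟩
  have h1 := Set.ncard_add_ncard_compl {m | I x m}
  rw [d.rep, Nat.card_eq_fintype_card, ← d.card_eq, d.card_points x] at h1
  rw [this]
  linarith

theorem card_two_le (d : Plane2 G I n) {x y p q : P} (h : x ≠ y) (h' : p ≠ q) :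
    Nat.card (stabilizer G x ⊓ stabilizer G y : Subgroup G) ≤
      Nat.card (stabilizer G p ⊓ stabilizer G q : Subgroup G) := by
  obtain ⟨g, rfl, rfl⟩ := d.two h h'
  exact card_le_of_conj_mem g fun s hs => ⟨(conj_smul_smul g s x).trans (congrArg _ hs.1),
    (conj_smul_smul g s y).trans (congrArg _ hs.2)⟩

theorem central_of_isPrimePow (d : Plane2 G I n) (hn : IsPrimePow n) (x : P) :
    ∃ g : G, g ≠ 1 ∧ ∃ c, g ∈ cenG G I c := by
  obtain ⟨p, e, hp, -, hn⟩ := (isPrimePow_nat_iff _).1 hn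
  obtain ⟨a, ha, -⟩ := d.join x x
  obtain ⟨y, hy, hyx, -⟩ := d.third a x x
  have h2 := d.two_le
  obtain ⟨Q, hle, hQ, u, hu, hc⟩ := exists_sylow_le (stabilizer G x ⊓ stabilizer G y) hp
  have horb : ∀ l, l ≠ a → n ≤ (gorb Q l).ncard := fun l hl => by
    refine Nat.le_of_dvd ((Set.ncard_pos).2 ⟨l, 1, one_mem _, one_smul _ _⟩) ?_
    have key : ∀ {x y : P}, x ≠ y → ¬ I x l → Q ≤ stabilizer G x →
        Nat.card (stabilizer G x ⊓ stabilizer G y : Subgroup G) = Nat.card Q * u →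
        n ∣ (gorb Q l).ncard := fun {x y} h1 h3 h4 h5 =>
      dvd_ncard_gorb (V := stabilizer G x ⊓ stabilizer G l) (inf_le_inf_right _ h4) (A := n + 1)
        (C := 1) (u := u) (Nat.eq_of_mul_eq_mul_left (show 0 < n by omega) (by
          have h6 := d.card_stab_pt h1
          rw [d.card_stab_ln h3, h5] at h6
          linear_combination -h6))
        (Nat.Coprime.mul_right (by simp) (hn ▸ hc.pow_left e))
    by_cases h : I x l
    · exact key hyx (fun h' => hl (d.uniq hyx h' h hy ha)) (hle.trans inf_le_right)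
        (by rw [inf_comm, hu])
    · exact key hyx.symm h (hle.trans inf_le_left) hu
  obtain ⟨l0, -, hl0, -⟩ := d.dual.third x a a
  obtain ⟨q, hq, hqp, hcq⟩ := exists_central_prime hp hQ fun e => by
    have h3 := card_eq_gorb_mul Q l0
    have h4 := horb l0 hl0
    rw [e, Subgroup.card_bot] at h3
    rw [e, Nat.eq_one_of_mul_eq_one_right h3.symm] at h4
    omega
  have hq1 : q ≠ 1 := fun e => hp.ne_one (by rw [← hqp, e, orderOf_one])
  have hfix : ∀ l : L, q • l = l → ∀ m ∈ gorb Q l, q • m = m := by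
    rintro l hl _ ⟨g, hg, rfl⟩
    rw [← mul_smul, ← hcq g hg, mul_smul, hl]
  have hnot : ∀ l, l ≠ a → a ∉ gorb Q l := by
    rintro l hl ⟨g, hg, e⟩
    exact hl (smul_left_cancel g (e.trans (d.fix_line hyx (hle hg).2 (hle hg).1 hy ha).symm))
  have hqa : q • a = a := d.fix_line hyx (hle hq).2 (hle hq).1 hy ha
  obtain ⟨b, hb, hba⟩ := Set.exists_ne_of_one_lt_ncard (s := {l : L | q • l = l}) (by
    rw [← d.ncard_fix d.inc]
    exact (Set.one_lt_ncard_iff (Set.toFinite _)).2 ⟨y, x, (hle hq).2, (hle hq).1, hyx⟩) a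
  have h3 := Set.ncard_le_ncard (s := insert a (gorb Q b)) (t := {l : L | q • l = l})
    (Set.insert_subset hqa (hfix b hb))
  rw [Set.ncard_insert_of_notMem (hnot b hba), ← d.ncard_fix d.inc] at h3
  refine ⟨q, hq1, ?_⟩
  by_cases h : ∀ p, q • p = p → I p a
  · refine d.exists_cen (a := a) fun p hp => (Set.eq_of_subset_of_ncard_le
      (s := {p : P | q • p = p}) (t := {p | I p a}) h ?_).ge hp
    have := horb b hba
    rw [d.size]
    omega
  · push Not at h
    obtain ⟨w, h4, h5⟩ := h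
    obtain ⟨l, l1, l2⟩ := d.join w x
    have hla : l ≠ a := fun e => h5 (e ▸ l1)
    have h6 := Set.eq_of_subset_of_ncard_le (s := gorb Q l) (t := {m | I x m ∧ m ≠ a})
      (by
        rintro _ ⟨g, hg, rfl⟩
        exact ⟨d.toPlaneAct.dual.inc_of_fix (hle hg).1 l2, fun e => hnot l hla ⟨g, hg, e⟩⟩)
      ((d.dual.ncard_punct ha).le.trans (horb l hla))
    refine ⟨x, fun m hm => ?_⟩
    by_cases hma : m = a
    · rw [hma, hqa]
    · exact hfix l (d.fix_line (fun e : w = x => h5 (e ▸ ha)) h4 (hle hq).1 l1 l2) m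
        (h6.ge ⟨hm, hma⟩)

theorem central_of_even (d : Plane2 G I n) (hn : Even n) (x : P) :
    ∃ g : G, g ≠ 1 ∧ ∃ c, g ∈ cenG G I c := by
  obtain ⟨a, -⟩ := d.join x x
  have h2 := d.two_le
  obtain ⟨k, n', hn', hk⟩ := Nat.exists_eq_two_pow_mul_odd (n := n) (by omega)
  have hk0 : k ≠ 0 := fun e => by
    rw [hk, e, pow_zero, one_mul] at hn
    exact Nat.not_even_iff_odd.2 hn' hn
  obtain ⟨Q, hle, hQ, u, hu, hc⟩ := exists_sylow_le (stabilizer G a) Nat.prime_two
  have horb : ∀ p, ¬ I p a → 2 ^ k * 2 ^ k ∣ (gorb Q p).ncard := fun p hp =>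
    dvd_ncard_gorb (V := stabilizer G a ⊓ stabilizer G p) (inf_le_inf_right _ hle) (A := 1)
      (C := n' * n') (u := u) (by rw [← hu, d.dual.card_stab_ln hp, hk]; ring)
      (by rw [one_mul, ← pow_add]; exact hc.pow_left _)
  have hlt : 1 < 2 ^ k := Nat.one_lt_two_pow hk0
  obtain ⟨p0, -, hp0, -⟩ := d.nd_bot a x
  obtain ⟨q, hq, hqp, hcq⟩ := exists_central_prime Nat.prime_two hQ fun e => by
    have h3 := card_eq_gorb_mul Q p0
    have h4 := horb p0 hp0
    rw [e, Subgroup.card_bot] at h3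
    rw [e, Nat.eq_one_of_mul_eq_one_right h3.symm, Nat.dvd_one] at h4
    exact hlt.ne' (Nat.eq_one_of_mul_eq_one_right h4)
  have hq1 : q ≠ 1 := fun e => by simp [e] at hqp
  have hqq : q * q = 1 := by rw [← sq, ← hqp, pow_orderOf_eq_one]
  refine ⟨q, hq1, ?_⟩
  by_cases hnd : ND I (Subgroup.zpowers q)
  · exfalso
    obtain ⟨m, hm⟩ := d.exists_fxOrd hnd x
    obtain ⟨t, e⟩ := exists_ext2 (H := ⊥) (K := Subgroup.zpowers q) (j := 0) bot_le (by simp)
      (by simp [hqp])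
    rcases d.baer e (d.fxOrd_bot x) hm with rfl | h
    · have := Set.eq_of_subset_of_ncard_le (Set.subset_univ {p : P | Fx (Subgroup.zpowers q) p})
        (by rw [hm.pts, Set.ncard_univ, Nat.card_eq_fintype_card, d.card_points x])
      exact hq1 (d.faith q fun p => fx_zpowers.1 (this.ge trivial))
    have h3 := dvd_ncard_of_gorb Q {p : P | Fx (Subgroup.zpowers q) p ∧ ¬ I p a}
      (fun g hg p hp => ⟨fx_zpowers.2 (by rw [← mul_smul, ← hcq g hg, mul_smul, fx_zpowers.1 hp.1]),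
        fun e => hp.2 (by rwa [← hle hg, d.inc] at e)⟩) fun p hp => horb p hp.2
    have h4 := Set.ncard_inter_add_ncard_sdiff_eq_ncard {p : P | Fx (Subgroup.zpowers q) p}
      {p | I p a}
    rw [hm.pts, show {p : P | Fx (Subgroup.zpowers q) p} ∩ {p | I p a} =
      {p | Fx (Subgroup.zpowers q) p ∧ I p a} from rfl, hm.line a (fx_zpowers.2 (hle hq))] at h4
    have h5 : {p : P | Fx (Subgroup.zpowers q) p ∧ ¬ I p a}.ncard = n := by
      have : {p : P | Fx (Subgroup.zpowers q) p} \ {p | I p a} =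
        {p : P | Fx (Subgroup.zpowers q) p ∧ ¬ I p a} := rfl
      rw [← this]
      omega
    rw [h5, hk, Nat.mul_dvd_mul_iff_left (by omega)] at h3
    exact Nat.not_even_iff_odd.2 hn' (even_iff_two_dvd.2 ((dvd_pow_self 2 hk0).trans h3))
  · simp only [ND, not_forall, not_exists, not_and, not_not] at hnd
    obtain ⟨l, c, h⟩ := hnd
    obtain ⟨b, hb⟩ := d.exists_ax_of_inv hqq (fun p => I p l) (fun p => p = c)
      (fun p q r m h1 h2 h3 h4 h5 h6 => d.uniq h1 h2 h3 h5 h6 ▸ h4)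
      (fun p q h1 h2 => h1.trans h2.symm)
      (fun p hp => (em (I p l)).imp id (h p (fx_zpowers.2 hp))) x
    exact d.exists_cen hb

theorem exists_ext (d : Plane2 G I n) (hn : Odd n) {H : Subgroup G} {j : ℕ}
    (hH : Nat.card H = 2 ^ j) (hnd : ND I H) {x y : P} {b : L} (hx : Fx H x) (hy : Fx H y)
    (hb : Fx H b) (hxb : I x b) (hyb : ¬ I y b) : ∃ (K : Subgroup G) (t : G),
      Nat.card K = 2 ^ (j + 1) ∧ Ext2 H K t ∧ t • x = x ∧ t • y = y ∧ t • b = b := by
  have hxy : x ≠ y := fun e => hyb (e ▸ hxb)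
  have h2 := d.two_le
  suffices 2 ^ (j + 1) ∣ Nat.card (stabilizer G x ⊓ stabilizer G y ⊓ stabilizer G b : Subgroup G) by
    obtain ⟨K, k1, k2, k3⟩ := exists_two_ext_up
      (U := stabilizer G x ⊓ stabilizer G y ⊓ stabilizer G b)
      (fun g hg => ⟨⟨hx g hg, hy g hg⟩, hb g hg⟩) hH this
    obtain ⟨t, e⟩ := exists_ext2 k1 hH k3
    exact ⟨K, t, k3, e, (k2 e.mem).1.1, (k2 e.mem).1.2, (k2 e.mem).2⟩
  have h3 : 2 ^ (j + 1) ∣ Nat.card (stabilizer G x ⊓ stabilizer G y : Subgroup G) := by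
    let W : Subgroup G :=
      { carrier := {g | (g • x = x ∧ g • y = y) ∨ (g • x = y ∧ g • y = x)}
        one_mem' := Or.inl ⟨one_smul _ _, one_smul _ _⟩
        mul_mem' := by
          rintro g h (⟨h1, h2⟩ | ⟨h1, h2⟩) (⟨h3, h4⟩ | ⟨h3, h4⟩) <;> simp [mul_smul, h1, h2, h3, h4]
        inv_mem' := by
          rintro g (⟨h1, h2⟩ | ⟨h1, h2⟩) <;> simp [inv_smul_eq_iff, h1, h2] }
    have h4 := card_eq_gorb_mul W x
    have h5 : gorb W x = {x, y} := by
      ext p
      constructor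
      · rintro ⟨g, hg | hg, rfl⟩
        · exact Or.inl hg.1
        · exact Or.inr hg.1
      · rintro (rfl | rfl)
        · exact ⟨1, one_mem _, one_smul _ _⟩
        · obtain ⟨g, hg⟩ := d.two hxy hxy.symm
          exact ⟨g, Or.inr hg, hg.1⟩
    have h6 : W ⊓ stabilizer G x = stabilizer G x ⊓ stabilizer G y := by
      ext g
      exact ⟨fun hg => hg.1.elim id fun h => absurd (hg.2.symm.trans h.1) hxy,
        fun hg => ⟨Or.inl hg, hg.1⟩⟩
    rw [h5, h6, Set.ncard_pair hxy] at h4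
    obtain ⟨K, k1, -, k3⟩ := exists_two_ext_up (U := W) (fun g hg => Or.inl ⟨hx g hg, hy g hg⟩) hH
      (by rw [h4, pow_succ']
          exact Nat.mul_dvd_mul_left 2 (hH ▸ Subgroup.card_dvd_of_le fun g hg => ⟨hx g hg, hy g hg⟩))
    obtain ⟨t, e⟩ := exists_ext2 k1 hH k3
    obtain ⟨σ, s1, s2, -⟩ := d.exists_induced e
    obtain ⟨m, hm⟩ := d.subplane hnd x
    obtain ⟨p, p1, -⟩ := hm.planeAct.exists_fix s1 ⟨x, hx⟩ ⟨x, hx⟩
    obtain ⟨q, q1, q2, -⟩ := hm.planeAct.exists_fix s1 p p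
    have hqp : q.1 ≠ p.1 := fun e => q2 (Subtype.ext e)
    have hK : ∀ r : FxT H P, σ • r = r → Fx K r.1 := fun r hr =>
      e.fx_iff.2 ⟨r.2, by rw [← s2, hr]⟩
    rw [le_antisymm (d.card_two_le hxy hqp) (d.card_two_le hqp hxy), ← k3]
    exact Subgroup.card_dvd_of_le fun g hg => ⟨hK q q1 g hg, hK p p1 g hg⟩
  obtain ⟨a, a1, a2⟩ := d.join x y
  have h4 := card_eq_gorb_mul (stabilizer G x ⊓ stabilizer G y) b
  have h5 := card_eq_gorb_mul (stabilizer G y ⊓ stabilizer G b) x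
  rw [show stabilizer G y ⊓ stabilizer G b ⊓ stabilizer G x =
    stabilizer G x ⊓ stabilizer G y ⊓ stabilizer G b by ac_rfl] at h5
  have h6 := d.card_stab_pt hxy.symm
  rw [d.card_stab_ln hyb, inf_comm (stabilizer G y) (stabilizer G x), h4, h5] at h6
  have h7 : n ∣ (gorb (stabilizer G x ⊓ stabilizer G y) b).ncard :=
    Nat.Coprime.dvd_of_dvd_mul_left (show Nat.Coprime n (n + 1) by simp)
      ⟨(gorb (stabilizer G y ⊓ stabilizer G b) x).ncard, Nat.eq_of_mul_eq_mul_left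
        (Nat.mul_pos (show 0 < n by omega)
          (Nat.card_pos (α := ↥(stabilizer G x ⊓ stabilizer G y ⊓ stabilizer G b))))
        (by linear_combination h6.symm)⟩
  have h8 : (gorb (stabilizer G x ⊓ stabilizer G y) b).ncard ≤ n := by
    refine le_trans (Set.ncard_le_ncard ?_) (d.dual.ncard_punct a1).le
    rintro _ ⟨g, hg, rfl⟩
    exact ⟨d.toPlaneAct.dual.inc_of_fix hg.1 hxb, fun e => hyb (by
      rw [← d.inc g, hg.2, e]; exact a2)⟩
  rw [h4, le_antisymm h8 (Nat.le_of_dvd ((Set.ncard_pos).2 ⟨b, 1, one_mem _, one_smul _ _⟩) h7)]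
    at h3
  exact Nat.Coprime.dvd_of_dvd_mul_left (Nat.Coprime.pow_left _ (by simpa using hn)) h3

theorem isPrimePow_of_odd (d : Plane2 G I n) (hn : Odd n) (x : P) : IsPrimePow n := by
  obtain ⟨H, ⟨⟨j, hH⟩, hnd⟩, hmax⟩ := Set.exists_max_image
    {H : Subgroup G | (∃ j, Nat.card H = 2 ^ j) ∧ ND I H} (fun H => Nat.card H) (Set.toFinite _)
    ⟨⊥, ⟨0, by simp⟩, d.nd_bot⟩
  obtain ⟨m, hm⟩ := d.subplane hnd x
  obtain ⟨a, -⟩ := d.join x x
  obtain ⟨p0, hp0, -⟩ := hnd a x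
  obtain ⟨i, hi⟩ := d.baer_chain x j hH hnd (hm.fxOrd ⟨p0, hp0⟩)
  rw [hi] at hn ⊢
  refine IsPrimePow.pow (hm.planeAct.isPrimePow_of_hom (Odd.of_dvd_nat hn
    (dvd_pow_self _ (by positivity))) ⟨p0, hp0⟩ fun x y b hxb hyb => ?_) (by positivity)
  rw [← hi] at hn
  obtain ⟨K, t, k1, e, t1, t2, t3⟩ := d.exists_ext hn hH hnd x.2 y.2 b.2 hxb hyb
  obtain ⟨σ, s1, s2, s3⟩ := d.exists_induced e
  have hK : ¬ ND I K := fun h => by
    have := hmax K ⟨⟨_, k1⟩, h⟩
    simp only [k1, hH] at this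
    exact absurd this (not_le.2 (Nat.pow_lt_pow_right one_lt_two j.lt_succ_self))
  refine ⟨σ, fun h => hK fun a c => (hnd a c).imp fun p hp => ⟨e.fx_iff.2 ⟨hp.1, ?_⟩, hp.2⟩, s1, ?_,
    Subtype.ext (by rw [s2, t1]), Subtype.ext (by rw [s2, t2]), Subtype.ext (by rw [s3, t3])⟩
  · rw [← s2 ⟨p, hp.1⟩, h]; rfl
  · simp only [ND, not_forall, not_exists, not_and, not_not] at hK
    obtain ⟨l, c, h⟩ := hK
    exact hm.planeAct.exists_ax_of_inv s1 (fun p => I p.1 l) (fun p => p.1 = c)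
      (fun p q r m h1 h2 h3 h4 h5 h6 => d.uniq (fun e => h1 (Subtype.ext e)) h2 h3 h5 h6 ▸ h4)
      (fun p q h1 h2 => Subtype.ext (h1.trans h2.symm))
      (fun p hp => (em (I p.1 l)).imp id (h p.1 (e.fx_iff.2 ⟨p.2, by rw [← s2, hp]⟩))) x

theorem exists_central (d : Plane2 G I n) (x : P) : ∃ g : G, g ≠ 1 ∧ ∃ c, g ∈ cenG G I c :=
  (Nat.even_or_odd n).elim (fun h => d.central_of_even h x)
    fun h => d.central_of_isPrimePow (d.isPrimePow_of_odd h x) x

theorem exists_onan (d : Plane2 G I n) (x : P) : ∃ N : P → Subgroup G, ONan N ∧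
    ∀ {x y l}, x ≠ y → I x l → I y l → ∀ p, p ∈ blk N x y ↔ I p l := by
  obtain ⟨g, hg1, c, hc⟩ := d.exists_central x
  have : FaithfulSMul G L := ⟨fun {a b} h => inv_mul_eq_one.1 (d.dual.faith _ fun l => by
    rw [mul_smul, ← h, inv_smul_smul])⟩
  obtain ⟨N, h, hN⟩ := d.toSymDesign.dual.exists_onan d.dual.inc d.two hg1 hc
  have h1 : ∀ {x y l}, x ≠ y → I x l → I y l → ∀ p ∈ blk N x y, I p l := by
    intro x y l hxy hx hy p hp
    by_cases hxp : x = p
    · exact hxp ▸ hx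
    obtain ⟨s, hs, rfl⟩ := h.exists_smul_eq hxy hp hxp
    exact d.inc_of_fix (hN x s hs l hx) hy
  refine ⟨N, h, fun {x y l} hxy hx hy z => ⟨h1 hxy hx hy z, fun hz s hs hsy => ?_⟩⟩
  by_contra hsz
  obtain ⟨w, -, hw, -⟩ := d.nd_bot l x
  have hzw : z ≠ w := fun e => hw (e ▸ hz)
  obtain ⟨u, hu, hsu⟩ := h.exists_fix_mem hzw hs
  obtain ⟨m, m1, m2⟩ := d.join z w
  have hul : ¬ I u l := fun e => hsz (d.uniq' (fun e1 : m = l => hw (e1 ▸ m2))
    (h1 hzw m1 m2 u hu) e m1 hz ▸ hsu)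
  have hxu : x ≠ u := fun e => hul (e ▸ hx)
  obtain ⟨u', hu', h3, h4⟩ := h.exists_third hxu
  obtain ⟨a, ha⟩ := d.dual.exists_cen (g := s) (a := x) (hN x s hs)
  have hpt : ∀ p : P, s • p = p → p ≠ x → I p a := fun p hp hpx => by
    by_contra h'
    exact hsz (by rw [d.eq_one_of_fix (hN x s hs) ha hp h' hpx, one_smul])
  obtain ⟨r, r1, r2⟩ := d.join x u
  have e1 : r = a := d.uniq h4 (h1 hxu r1 r2 u' hu') r2 (hpt u' (hu' s hs hsu) h3)
    (hpt u hsu hxu.symm)
  exact hul (d.uniq hxy r1 (e1 ▸ hpt y hsy hxy.symm) hx hy ▸ r2)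

/-- **Ostrom–Wagner** -/
theorem desarguesian (d : Plane2 G I n) (x : P) :
    ∃ (F : Type) (_ : Field F) (_ : Fintype F) (φ : P ≃ Projectivization F (Fin 3 → F)),
      (∀ l : L, ∃ W : Submodule F (Fin 3 → F), Module.finrank F W = 2 ∧
          ∀ p : P, I p l ↔ (φ p).submodule ≤ W) ∧
      (∀ W : Submodule F (Fin 3 → F), Module.finrank F W = 2 →
          ∃ l : L, ∀ p : P, I p l ↔ (φ p).submodule ≤ W) := by
  obtain ⟨N, h, hN⟩ := d.exists_onan x
  obtain ⟨F, _, _, k, v, hk, c⟩ := h.exists_coord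
  obtain rfl : k = 3 := by
    by_contra hne
    have hs : ∀ i : Fin k, ∃ p, v p i ≠ 0 ∧ ∀ j, j ≠ i → v p j = 0 := fun i => by
      obtain ⟨p, a, e⟩ := c.surj (Pi.single i 1) (by simp)
      have h1 := congrFun e i
      simp only [Pi.smul_apply, smul_eq_mul, Pi.single_eq_same] at h1
      refine ⟨p, right_ne_zero_of_mul_eq_one h1, fun j hj => ?_⟩
      have h2 := congrFun e j
      simp only [Pi.smul_apply, smul_eq_mul, Pi.single_eq_of_ne hj] at h2
      exact (mul_eq_zero.1 h2).resolve_left (left_ne_zero_of_mul_eq_one h1)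
    choose q q1 q2 using hs
    have hq : ∀ i j, i ≠ j → q i ≠ q j := fun i j hij e => q1 i (e ▸ q2 j i hij)
    let i0 : Fin k := ⟨0, by omega⟩
    let i1 : Fin k := ⟨1, by omega⟩
    let i2 : Fin k := ⟨2, by omega⟩
    let i3 : Fin k := ⟨3, by omega⟩
    have h01 := hq i0 i1 (by simp [i0, i1])
    have h23 := hq i2 i3 (by simp [i2, i3])
    obtain ⟨l, l1, l2⟩ := d.join (q i0) (q i1)
    obtain ⟨m, m1, m2⟩ := d.join (q i2) (q i3)
    obtain ⟨r, r1, r2⟩ := d.meet l m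
    obtain ⟨a, b, e1⟩ := (c.blk h01 r).1 ((hN h01 l1 l2 r).2 r1)
    obtain ⟨a', b', e2⟩ := (c.blk h23 r).1 ((hN h23 m1 m2 r).2 r2)
    refine c.ne r (funext fun j => ?_)
    by_cases hj : j = i0 ∨ j = i1
    · rw [← e2]
      rcases hj with rfl | rfl <;> simp [q2, i0, i1, i2, i3]
    · push Not at hj
      rw [← e1]
      simp [q2, hj.1, hj.2]
  have key : ∀ {x y l}, x ≠ y → I x l → I y l →
      Module.finrank F (Submodule.span F {v x, v y}) = 2 ∧
      ∀ p : P, I p l ↔ (c.equiv p).submodule ≤ Submodule.span F {v x, v y} := by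
    intro x y l hxy hx hy
    refine ⟨?_, fun p => ?_⟩
    · have := finrank_span_eq_card (b := ![v x, v y])
        ((LinearIndependent.pair_iff' (c.ne x)).2 fun a e => hxy (c.inj a e))
      rwa [Matrix.range_cons_cons_empty] at this
    · rw [← hN hxy hx hy, c.blk hxy, c.equiv_apply, Projectivization.submodule_mk,
        Submodule.span_singleton_le_iff_mem, Submodule.mem_span_pair]
  refine ⟨F, inferInstance, inferInstance, c.equiv, fun l => ?_, fun W hW => ?_⟩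
  · obtain ⟨x, hx, -⟩ := d.meet l l
    obtain ⟨y, hy, hyx, -⟩ := d.third l x x
    exact ⟨_, key hyx hy hx⟩
  · obtain ⟨w1, h1, h1'⟩ := Submodule.exists_mem_ne_zero_of_ne_bot (p := W) (by
      rintro rfl
      simp at hW)
    obtain ⟨p, a, rfl⟩ := c.surj w1 h1'
    have hp : v p ∈ W := (W.smul_mem_iff fun e => h1' (by rw [e, zero_smul])).1 h1
    obtain ⟨w2, h2, h2'⟩ := SetLike.exists_of_lt (Submodule.lt_of_le_of_finrank_lt_finrank
      ((Submodule.span_singleton_le_iff_mem _ _).2 hp) (by rw [finrank_span_singleton (c.ne p), hW]; simp))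
    obtain ⟨q, b, rfl⟩ := c.surj w2 fun e => h2' (e ▸ zero_mem _)
    have hq : v q ∈ W := (W.smul_mem_iff fun e => h2' (by rw [e, zero_smul]; exact zero_mem _)).1 h2
    have hpq : p ≠ q := fun e => h2' (e ▸ Submodule.smul_mem _ _ (Submodule.mem_span_singleton_self _))
    obtain ⟨l, l1, l2⟩ := d.join p q
    obtain ⟨k1, k2⟩ := key hpq l1 l2
    rw [Submodule.eq_of_le_of_finrank_eq (Submodule.span_le.2 (Set.pair_subset hp hq))
      (k1.trans hW.symm)] at k2
    exact ⟨l, k2⟩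

end Plane2

end CfsgLib.Perm
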