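import Mathlib
import Cfsg.Agent.Lib.Perm.MultiTrans

/-!
Witt's lemma on transitive extensions.
-/

set_option autoImplicit false

namespace CfsgLib.Perm

open MulAction

/-- One step of Witt's construction: with `M = K ∪ K y K`, an element `x` normalising `K` with
`x ^ 2 ∈ K` and `(y x) ^ 3 ∈ M` generates together with `M` the group `M ∪ M x M`. -/
theorem witt_double_coset {P : Type*} [Group P] (M K : Subgroup P) (hKM : K ≤ M) {x y : P}
    (hy : y ∈ M) (hM : ∀ m ∈ M, m ∈ K ∨ ∃ k ∈ K, ∃ k' ∈ K, m = k * y * k')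
    (hx2 : x ^ 2 ∈ K) (hxK : ∀ k ∈ K, x * k * x⁻¹ ∈ K) (hyx : (y * x) ^ 3 ∈ M) {g : P}
    (hg : g ∈ M ⊔ Subgroup.zpowers x) : g ∈ M ∨ ∃ m ∈ M, ∃ m' ∈ M, g = m * x * m' := by
  have hxK' : ∀ k ∈ K, x⁻¹ * k * x ∈ K := by
    intro k hk
    have := K.mul_mem (K.mul_mem (K.inv_mem hx2) (hxK k hk)) hx2
    convert this using 1
    simp only [pow_two]; group
  have key : ∀ m ∈ M, x * m * x ∈ M ∨ ∃ a ∈ M, ∃ b ∈ M, x * m * x = a * x * b := by
    intro m hm
    rcases hM m hm with h | ⟨k, hk, k', hk', rfl⟩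
    · left
      have := M.mul_mem (hKM (hxK m h)) (hKM hx2)
      convert this using 1
      simp only [pow_two]; group
    · right
      refine ⟨(x * k * x⁻¹) * y⁻¹ * (y * x) ^ 3 * (x ^ 2)⁻¹,
        M.mul_mem (M.mul_mem (M.mul_mem (hKM (hxK k hk)) (M.inv_mem hy)) hyx)
          (M.inv_mem (hKM hx2)), y⁻¹ * (x⁻¹ * k' * x),
        M.mul_mem (M.inv_mem hy) (hKM (hxK' k' hk')), ?_⟩
      simp only [pow_succ, pow_zero, one_mul]; group
  let S : Subgroup P :=
    { carrier := {g | g ∈ M ∨ ∃ m ∈ M, ∃ m' ∈ M, g = m * x * m'}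
      one_mem' := Or.inl M.one_mem
      inv_mem' := by
        rintro g (h | ⟨m, hm, m', hm', rfl⟩)
        · exact Or.inl (M.inv_mem h)
        · refine Or.inr ⟨m'⁻¹ * (x ^ 2)⁻¹, M.mul_mem (M.inv_mem hm') (M.inv_mem (hKM hx2)), m⁻¹,
            M.inv_mem hm, ?_⟩
          simp only [pow_two]; group
      mul_mem' := by
        rintro g h (hg | ⟨m, hm, m', hm', rfl⟩) (hh | ⟨n, hn, n', hn', rfl⟩)
        · exact Or.inl (M.mul_mem hg hh)
        · exact Or.inr ⟨g * n, M.mul_mem hg hn, n', hn', by group⟩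
        · exact Or.inr ⟨m, hm, m' * h, M.mul_mem hm' hh, by group⟩
        · rcases key (m' * n) (M.mul_mem hm' hn) with h | ⟨a, ha, b, hb, h⟩
          · left
            have := M.mul_mem (M.mul_mem hm h) hn'
            convert this using 1
            group
          · refine Or.inr ⟨m * a, M.mul_mem hm ha, b * n', M.mul_mem hb hn', ?_⟩
            calc _ = m * (x * (m' * n) * x) * n' := by group
              _ = _ := by rw [h]; group }
  have hle : M ⊔ Subgroup.zpowers x ≤ S := by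
    refine sup_le (fun m hm => Or.inl hm) ?_
    rw [Subgroup.zpowers_le]
    exact Or.inr ⟨1, M.one_mem, 1, M.one_mem, by group⟩
  exact hle hg

/-- Witt's tower: `K 1 ≤ K 2 ≤ ⋯ ≤ K t` with `K (i+1) = ⟨K i, s i⟩`. -/
theorem witt_tower {P α : Type*} [Group P] [MulAction P α] (t : ℕ) (q : ℕ → α)
    (hq : ∀ i j : ℕ, 1 ≤ i → i ≤ t → 1 ≤ j → j ≤ t → q i = q j → i = j)
    (K : ℕ → Subgroup P) (s : ℕ → P)
    (hK : ∀ i, 1 ≤ i → i + 1 ≤ t → K (i + 1) = K i ⊔ Subgroup.zpowers (s i))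
    (hfix1 : ∀ g ∈ K 1, ∀ j, 2 ≤ j → j ≤ t → g • q j = q j)
    (htr1 : ∀ a b : α, (∀ j, 2 ≤ j → j ≤ t → a ≠ q j ∧ b ≠ q j) → ∃ g ∈ K 1, g • a = b)
    (hst2 : 2 ≤ t → ∀ g ∈ K 2, g • q 2 = q 2 → g ∈ K 1)
    (hs : ∀ i, 1 ≤ i → i + 1 ≤ t → s i • q (i + 1) = q i ∧ s i • q i = q (i + 1) ∧
      ∀ j, i + 1 < j → j ≤ t → s i • q j = q j)
    (hsq : ∀ i, 1 ≤ i → i + 1 ≤ t → s i ^ 2 ∈ K 1)
    (hbraid : ∀ i, 1 ≤ i → i + 2 ≤ t → (s i * s (i + 1)) ^ 3 ∈ K 1)
    (hcomm : ∀ i j, 1 ≤ i → i + 2 ≤ j → j + 1 ≤ t → (s j * s i) ^ 2 ∈ K 1)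
    (hnorm : ∀ i, 2 ≤ i → i + 1 ≤ t → ∀ g ∈ K 1, s i * g * (s i)⁻¹ ∈ K 1) :
    (∀ i, 1 ≤ i → i ≤ t → ∀ g ∈ K i, ∀ j, i < j → j ≤ t → g • q j = q j) ∧
    (∀ i, 1 ≤ i → i ≤ t → ∀ a b : α, (∀ j, i < j → j ≤ t → a ≠ q j ∧ b ≠ q j) →
      ∃ g ∈ K i, g • a = b) ∧
    (∀ i, 1 ≤ i → i + 1 ≤ t → ∀ g ∈ K (i + 1), g • q (i + 1) = q (i + 1) → g ∈ K i) := by
  have hmono1 : ∀ i, 1 ≤ i → i + 1 ≤ t → K i ≤ K (i + 1) := fun i h1 h2 => by
    rw [hK i h1 h2]; exact le_sup_left
  have hsK : ∀ i, 1 ≤ i → i + 1 ≤ t → s i ∈ K (i + 1) := fun i h1 h2 => by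
    rw [hK i h1 h2]; exact Subgroup.mem_sup_right (Subgroup.mem_zpowers _)
  have hmono : ∀ i j, 1 ≤ i → i ≤ j → j ≤ t → K i ≤ K j := by
    intro i j h1 h2
    induction j, h2 using Nat.le_induction with
    | base => exact fun _ => le_rfl
    | succ j hj ih => exact fun h => (ih (by omega)).trans (hmono1 j (by omega) h)
  have hfix : ∀ i, 1 ≤ i → i ≤ t → ∀ g ∈ K i, ∀ j, i < j → j ≤ t → g • q j = q j := by
    intro i h1
    induction i, h1 using Nat.le_induction with
    | base => exact fun _ g hg j h2 h3 => hfix1 g hg j h2 h3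
    | succ i hi ih =>
      intro h g hg j h2 h3
      have : K (i + 1) ≤ stabilizer P (q j) := by
        rw [hK i hi h]
        refine sup_le (fun g hg => ih (by omega) g hg j (by omega) h3) ?_
        rw [Subgroup.zpowers_le]
        exact (hs i hi h).2.2 j h2 h3
      exact this hg
  have htr : ∀ i, 1 ≤ i → i ≤ t → ∀ a b : α, (∀ j, i < j → j ≤ t → a ≠ q j ∧ b ≠ q j) →
      ∃ g ∈ K i, g • a = b := by
    intro i h1
    induction i, h1 using Nat.le_induction with
    | base => exact fun _ a b h => htr1 a b h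
    | succ i hi ih =>
      intro h
      have hqi : ∀ j, i < j → j ≤ t → q i ≠ q j := fun j h2 h3 h4 => by
        have := hq i j hi (by omega) (by omega) h3 h4; omega
      have hto : ∀ a : α, (∀ j, i + 1 < j → j ≤ t → a ≠ q j) → ∃ g ∈ K (i + 1), g • a = q i := by
        intro a ha
        by_cases ha' : a = q (i + 1)
        · exact ⟨s i, hsK i hi h, by rw [ha', (hs i hi h).1]⟩
        · obtain ⟨g, hg, hga⟩ := ih (by omega) a (q i) (fun j h2 h3 => ⟨by
            rcases Nat.eq_or_lt_of_le (Nat.succ_le_of_lt h2) with h4 | h4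
            · rw [← h4]; exact ha'
            · exact ha j h4 h3, hqi j h2 h3⟩)
          exact ⟨g, hmono1 i hi h hg, hga⟩
      intro a b hab
      obtain ⟨g, hg, hga⟩ := hto a fun j h2 h3 => (hab j h2 h3).1
      obtain ⟨g', hg', hgb⟩ := hto b fun j h2 h3 => (hab j h2 h3).2
      exact ⟨g'⁻¹ * g, Subgroup.mul_mem _ (Subgroup.inv_mem _ hg') hg,
        by rw [mul_smul, hga, ← hgb, inv_smul_smul]⟩
  refine ⟨hfix, htr, ?_⟩
  have hnormK : ∀ j i, 1 ≤ i → i + 1 ≤ j → j + 1 ≤ t → ∀ g ∈ K i, s j * g * (s j)⁻¹ ∈ K i := by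
    intro j i h1
    induction i, h1 using Nat.le_induction with
    | base => exact fun h2 h3 => hnorm j h2 h3
    | succ i hi ih =>
      intro h2 h3
      have : K (i + 1) ≤ (K (i + 1)).comap (MulAut.conj (s j)).toMonoidHom := by
        conv_lhs => rw [hK i hi (by omega)]
        refine sup_le (fun g hg => hmono1 i hi (by omega) (ih (by omega) h3 g hg)) ?_
        rw [Subgroup.zpowers_le]
        change s j * s i * (s j)⁻¹ ∈ K (i + 1)
        have h1K : K 1 ≤ K (i + 1) := hmono 1 (i + 1) le_rfl (by omega) (by omega)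
        have := (K (i + 1)).mul_mem ((K (i + 1)).mul_mem (h1K (hcomm i j hi h2 h3))
          ((K (i + 1)).inv_mem (hsK i hi (by omega))))
          ((K (i + 1)).inv_mem (h1K (hsq j (by omega) h3)))
        convert this using 1
        simp only [pow_two]; group
      exact fun g hg => this hg
  intro i h1
  induction i, h1 using Nat.le_induction with
  | base => exact hst2
  | succ i hi ih =>
    intro h g hg hgq
    have ih := ih (by omega)
    rw [hK (i + 1) (by omega) h] at hg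
    have hdc := witt_double_coset (K (i + 1)) (K i) (hmono1 i hi (by omega)) (x := s (i + 1))
      (y := s i) (hsK i hi (by omega)) (by
        intro m hm
        by_cases hmq : m • q (i + 1) = q (i + 1)
        · exact Or.inl (ih m hm hmq)
        right
        obtain ⟨k, hk, hkq⟩ := htr i hi (by omega) (q i) (m • q (i + 1)) (by
          intro j h2 h3
          refine ⟨fun h4 => by have := hq i j hi (by omega) (by omega) h3 h4; omega, ?_⟩
          rcases Nat.eq_or_lt_of_le (Nat.succ_le_of_lt h2) with h4 | h4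
          · rw [← h4]; exact hmq
          · intro h5
            rw [← hfix (i + 1) (by omega) (by omega) m hm j h4 h3] at h5
            have := hq (i + 1) j (by omega) (by omega) (by omega) h3 (MulAction.injective m h5)
            omega)
        refine ⟨k, hk, (k * s i)⁻¹ * m, ih _ (Subgroup.mul_mem _ (Subgroup.inv_mem _
          (Subgroup.mul_mem _ (hmono1 i hi (by omega) hk) (hsK i hi (by omega)))) hm) ?_, by group⟩
        rw [mul_smul, inv_smul_eq_iff, mul_smul, (hs i hi (by omega)).1, hkq])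
      (hmono 1 i le_rfl hi (by omega) (hsq (i + 1) (by omega) h))
      (hnormK (i + 1) i hi le_rfl h)
      (hmono 1 (i + 1) le_rfl (by omega) (by omega) (hbraid i hi h)) hg
    rcases hdc with h2 | ⟨m, hm, m', hm', rfl⟩
    · exact h2
    exfalso
    rw [mul_smul, mul_smul, hfix (i + 1) (by omega) (by omega) m' hm' (i + 1 + 1) (by omega) h,
      (hs (i + 1) (by omega) h).1] at hgq
    have h3 := hfix (i + 1) (by omega) (by omega) m hm (i + 1 + 1) (by omega) h
    have := hq (i + 1) (i + 1 + 1) (by omega) (by omega) (by omega) h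
      (MulAction.injective m (hgq.trans h3.symm))
    omega

end CfsgLib.Perm
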