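import Mathlib
import Cfsg.Prelude.Def_Perm
import Cfsg.Agent.Lib.Perm.Sharp2

set_option autoImplicit false

/-!
Near-fields and sharply 2-transitive actions.
-/

namespace CfsgLib.Perm

open MulAction Cfsg

section basic

variable {F : Type*} [NearField F]

theorem nf_zero_mul (c : F) : (0 : F) * c = 0 := by
  have h := NearField.right_distrib (0 : F) 0 c
  rw [add_zero] at h
  exact left_eq_add.mp h

theorem nf_neg_mul (a c : F) : (-a) * c = -(a * c) := by
  have h := NearField.right_distrib (-a) a c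
  rw [neg_add_cancel, nf_zero_mul] at h
  exact eq_neg_of_add_eq_zero_left h.symm

theorem nf_sub_mul (a b c : F) : (a - b) * c = a * c - b * c := by
  rw [sub_eq_add_neg, NearField.right_distrib, nf_neg_mul, sub_eq_add_neg]

theorem nf_mul_ne_zero {a c : F} (ha : a ≠ 0) (hc : c ≠ 0) : a * c ≠ 0 := by
  intro h
  obtain ⟨d, hd, -⟩ := NearField.exists_inv c hc
  apply ha
  rw [← mul_one a, ← hd, ← mul_assoc, h, nf_zero_mul]

theorem nf_ne_zero_of_mul_eq_one {a d : F} (h : a * d = 1) : d ≠ 0 := by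
  rintro rfl
  rw [NearField.mul_zero] at h
  exact NearField.zero_ne_one h

theorem nf_mul_left_cancel {a b c : F} (ha : a ≠ 0) (h : a * b = a * c) : b = c := by
  obtain ⟨d, -, hd⟩ := NearField.exists_inv a ha
  rw [← one_mul b, ← one_mul c, ← hd, mul_assoc, mul_assoc, h]

theorem nf_mul_right_cancel {a b c : F} (ha : a ≠ 0) (h : b * a = c * a) : b = c := by
  obtain ⟨d, hd, -⟩ := NearField.exists_inv a ha
  rw [← mul_one b, ← mul_one c, ← hd, ← mul_assoc, ← mul_assoc, h]

theorem nf_nontrivial : Nontrivial F := ⟨⟨0, 1, NearField.zero_ne_one⟩⟩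

theorem nf_exists_perm {a : F} (ha : a ≠ 0) (b : F) :
    ∃ σ : Equiv.Perm F, ∀ x, σ x = x * a + b := by
  obtain ⟨d, hd, hd'⟩ := NearField.exists_inv a ha
  refine ⟨⟨fun x => x * a + b, fun y => (y - b) * d, fun x => ?_, fun y => ?_⟩, fun x => rfl⟩
  · simp only [add_sub_cancel_right]
    rw [mul_assoc, hd, mul_one]
  · simp only
    rw [mul_assoc, hd', mul_one, sub_add_cancel]

variable (F) in
/-- The group of affine maps `x ↦ x * a + b` of a near-field. -/
def nfAffine : Subgroup (Equiv.Perm F) where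
  carrier := {σ | ∃ a b : F, a ≠ 0 ∧ ∀ x : F, σ x = x * a + b}
  one_mem' := ⟨1, 0, NearField.zero_ne_one.symm, fun x => by simp⟩
  mul_mem' := by
    rintro σ τ ⟨a, b, ha, hσ⟩ ⟨c, d, hc, hτ⟩
    refine ⟨c * a, d * a + b, nf_mul_ne_zero hc ha, fun x => ?_⟩
    rw [Equiv.Perm.mul_apply, hτ, hσ, NearField.right_distrib, mul_assoc, add_assoc]
  inv_mem' := by
    rintro σ ⟨a, b, ha, hσ⟩
    obtain ⟨d, hd, hd'⟩ := NearField.exists_inv a ha
    refine ⟨d, (-b) * d, nf_ne_zero_of_mul_eq_one hd, fun x => ?_⟩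
    apply σ.injective
    rw [Equiv.Perm.inv_def, Equiv.apply_symm_apply, hσ, ← NearField.right_distrib, mul_assoc, hd',
      mul_one, neg_add_cancel_right]

theorem mem_nfAffine {σ : Equiv.Perm F} :
    σ ∈ nfAffine F ↔ ∃ a b : F, a ≠ 0 ∧ ∀ x : F, σ x = x * a + b := Iff.rfl

theorem isSharp2_nfAffine : IsSharp2 (nfAffine F) F := by
  constructor
  · intro x0 x1 y0 y1 hx hy
    obtain ⟨d, hd, hd'⟩ := NearField.exists_inv (x0 - x1) (sub_ne_zero.mpr hx)
    have ha : d * (y0 - y1) ≠ 0 :=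
      nf_mul_ne_zero (nf_ne_zero_of_mul_eq_one hd) (sub_ne_zero.mpr hy)
    obtain ⟨σ, hσ⟩ := nf_exists_perm ha (-(x1 * (d * (y0 - y1))) + y1)
    refine ⟨⟨σ, _, _, ha, hσ⟩, ?_, ?_⟩
    · show σ x0 = y0
      rw [hσ, ← add_assoc, ← sub_eq_add_neg, ← nf_sub_mul, ← mul_assoc, hd, one_mul,
        sub_add_cancel]
    · show σ x1 = y1
      rw [hσ, add_neg_cancel_left]
  · rintro ⟨σ, a, b, ha, hσ⟩ x0 x1 hx h0 h1
    change σ x0 = x0 at h0
    change σ x1 = x1 at h1
    rw [hσ] at h0 h1
    have h2 : (x0 - x1) * a = (x0 - x1) * 1 := by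
      rw [nf_sub_mul, mul_one]
      conv_rhs => rw [← h0, ← h1]
      rw [add_sub_add_right_eq_sub]
    have h3 := nf_mul_left_cancel (sub_ne_zero.mpr hx) h2
    rw [h3, mul_one] at h0
    have h4 : b = 0 := add_eq_left.mp h0
    apply Subtype.ext
    ext x
    show σ x = x
    rw [hσ, h3, h4, mul_one, add_zero]

theorem nf_finite_structure [Finite F] :
    ∃ p j : ℕ, p.Prime ∧ 1 ≤ j ∧ Nat.card F = p ^ j ∧ (∀ x y : F, x + y = y + x) ∧
      ∀ x : F, p • x = 0 := by
  have := nf_nontrivial (F := F)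
  have h := isSharp2_nfAffine (F := F)
  obtain ⟨p, j, hp, hj, hcard, hpk, -⟩ := h.exists_prime_pow
  have ht : ∀ b : F, ∃ t : nfAffine F, t ∈ h.kernel ∧ ∀ x : F, t • x = x + b := by
    intro b
    refine ⟨⟨Equiv.addRight b, 1, b, NearField.zero_ne_one.symm, fun x => by simp⟩, ?_,
      fun x => rfl⟩
    by_cases hb : b = 0
    · left
      apply Subtype.ext
      ext x
      simp [hb]
    · right
      intro c hc
      exact hb (add_eq_left.mp hc)
  refine ⟨p, j, hp, hj, hcard, fun x y => ?_, fun x => ?_⟩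
  · obtain ⟨s, hs, hs'⟩ := ht x
    obtain ⟨t, ht, ht'⟩ := ht y
    have := congrArg (fun g : nfAffine F => g • (0 : F)) (h.kernel_comm hs ht)
    simp only [mul_smul, hs', ht', zero_add] at this
    exact this.symm
  · obtain ⟨s, hs, hs'⟩ := ht x
    have key : ∀ n : ℕ, (s ^ n) • (0 : F) = n • x := by
      intro n
      induction n with
      | zero => simp
      | succ n ih => rw [pow_succ', mul_smul, ih, hs', succ_nsmul]
    rw [← key, hpk s hs, one_smul]

end basic

variable {G : Type*} {Ω : Type*} [Group G] [MulAction G Ω]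

/-- A finite sharply 2-transitive action is the affine action of a near-field with prescribed
`0` and `1`. -/
theorem IsSharp2.exists_nearField [Finite Ω] (h : IsSharp2 G Ω) {o e : Ω} (hoe : o ≠ e) :
    ∃ _ : NearField Ω, (0 : Ω) = o ∧ (1 : Ω) = e ∧
      (∀ g : G, ∃ a b : Ω, a ≠ 0 ∧ ∀ x, g • x = x * a + b) ∧
      (∀ a b : Ω, a ≠ 0 → ∃ g : G, ∀ x, g • x = x * a + b) ∧
      (∀ g : G, g ∈ h.kernel ↔ ∃ b : Ω, ∀ x, g • x = x + b) := by
  classical
  choose t ht ht' using h.kernel_exists_smul_eq o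
  have hm0 : ∀ a : Ω, ∃ g : G, a ≠ o → g • o = o ∧ g • e = a := by
    intro a
    by_cases ha : a = o
    · exact ⟨1, fun h => absurd ha h⟩
    · obtain ⟨g, hg⟩ := h.two_trans hoe (Ne.symm ha)
      exact ⟨g, fun _ => hg⟩
  choose m hm using hm0
  have htu : ∀ {g : G} {b : Ω}, g ∈ h.kernel → g • o = b → g = t b := by
    intro g b hg hb
    exact h.kernel_eq_of_smul_eq hg (ht b) (by rw [hb, ht'])
  have hmu : ∀ {g : G} {a : Ω}, g • o = o → g • e = a → g = m a := by
    intro g a h1 h2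
    have ha : a ≠ o := by
      rintro rfl
      exact hoe (smul_left_cancel g (h1.trans h2.symm))
    exact h.eq_of_smul_eq hoe (by rw [h1, (hm a ha).1]) (by rw [h2, (hm a ha).2])
  have hto : t o = 1 := (htu (one_mem _) (one_smul _ _)).symm
  have hme : m e = 1 := (hmu (one_smul _ _) (one_smul _ _)).symm
  letI iAdd : Add Ω := ⟨fun x b => t b • x⟩
  letI iZero : Zero Ω := ⟨o⟩
  letI iNeg : Neg Ω := ⟨fun b => (t b)⁻¹ • o⟩
  letI iMul : Mul Ω := ⟨fun x a => if a = o then o else m a • x⟩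
  letI iOne : One Ω := ⟨e⟩
  have hadd : ∀ x b : Ω, x + b = t b • x := fun _ _ => rfl
  have hmul : ∀ x a : Ω, a ≠ o → x * a = m a • x := fun x a ha => if_neg ha
  have hmul0 : ∀ x : Ω, x * o = o := fun x => if_pos rfl
  have h0mul : ∀ a : Ω, o * a = o := by
    intro a
    by_cases ha : a = o
    · rw [ha, hmul0]
    · rw [hmul _ _ ha, (hm a ha).1]
  have hne : ∀ {x a : Ω}, x ≠ o → a ≠ o → m a • x ≠ o := by
    intro x a hx ha hxa
    exact hx (smul_left_cancel (m a) (hxa.trans (hm a ha).1.symm))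
  letI iAG : AddGroup Ω := AddGroup.ofLeftAxioms
    (fun x b c => by
      rw [hadd, hadd, hadd, hadd, ← mul_smul]
      congr 1
      exact htu (mul_mem (ht c) (ht b)) (by rw [mul_smul, ht']))
    (fun a => ht' a)
    (fun a => by
      rw [hadd]
      exact smul_inv_smul _ _)
  letI iM : Monoid Ω :=
    { iMul, iOne with
      mul_assoc := fun x a c => by
        show x * a * c = x * (a * c)
        by_cases ha : a = o
        · rw [ha, hmul0, h0mul, hmul0]
        by_cases hc : c = o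
        · rw [hc, hmul0, hmul0, hmul0]
        rw [hmul _ _ hc, hmul _ _ hc, hmul _ _ ha, hmul _ _ (hne ha hc), ← mul_smul]
        congr 1
        exact hmu (by rw [mul_smul, (hm a ha).1, (hm c hc).1]) (by rw [mul_smul, (hm a ha).2])
      one_mul := fun a => by
        show e * a = a
        by_cases ha : a = o
        · rw [ha, hmul0]
        · rw [hmul _ _ ha, (hm a ha).2]
      mul_one := fun a => by
        show a * e = a
        rw [hmul _ _ hoe.symm, hme, one_smul]
      npow := npowRec }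
  let N : NearField Ω :=
    { iAG, iM with
      right_distrib := fun x b c => by
        show (x + b) * c = x * c + b * c
        by_cases hc : c = o
        · rw [hc, hmul0, hmul0, hmul0, hadd, ht']
        rw [hmul _ _ hc, hmul _ _ hc, hmul _ _ hc, hadd, hadd]
        have : m c * t b * (m c)⁻¹ = t (m c • b) :=
          htu (h.kernel_normal.conj_mem _ (ht b) _)
            (by rw [mul_smul, mul_smul, inv_smul_eq_iff.mpr (hm c hc).1.symm, ht'])
        rw [← this, mul_smul, mul_smul, inv_smul_smul]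
      mul_zero := fun a => hmul0 a
      zero_ne_one := hoe
      exists_inv := fun a ha => by
        have ha' : a ≠ o := ha
        have h1 : (m a)⁻¹ • o = o := inv_smul_eq_iff.mpr (hm a ha').1.symm
        have h2 : (m a)⁻¹ = m ((m a)⁻¹ • e) := hmu h1 rfl
        have h3 : (m a)⁻¹ • e ≠ o := by
          intro h4
          exact hoe (smul_left_cancel (m a)⁻¹ (h1.trans h4.symm))
        refine ⟨(m a)⁻¹ • e, ?_, ?_⟩
        · show a * ((m a)⁻¹ • e) = e
          rw [hmul _ _ h3, ← h2, inv_smul_eq_iff, (hm a ha').2]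
        · show ((m a)⁻¹ • e) * a = e
          rw [hmul _ _ ha', smul_inv_smul] }
  refine ⟨N, rfl, rfl, fun g => ?_, fun a b ha => ?_, fun g => ⟨fun hg => ?_, ?_⟩⟩
  · have h1 : ((t (g • o))⁻¹ * g) • o = o := by rw [mul_smul, inv_smul_eq_iff, ht']
    have h2 := hmu h1 rfl
    have h3 : ((t (g • o))⁻¹ * g) • e ≠ o := by
      intro h4
      exact hoe (smul_left_cancel _ (h1.trans h4.symm))
    refine ⟨((t (g • o))⁻¹ * g) • e, g • o, h3, fun x => ?_⟩
    show g • x = x * (((t (g • o))⁻¹ * g) • e) + g • o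
    rw [hmul _ _ h3, hadd, ← h2, mul_smul, smul_inv_smul]
  · refine ⟨t b * m a, fun x => ?_⟩
    show (t b * m a) • x = x * a + b
    rw [hmul _ _ ha, hadd, mul_smul]
  · refine ⟨g • o, fun x => ?_⟩
    show g • x = x + g • o
    rw [hadd, ← htu hg rfl]
  · rintro ⟨b, hb⟩
    have : g = t b := h.eq_of_smul_eq hoe (hb o) (hb e)
    rw [this]
    exact ht b

end CfsgLib.Perm
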