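import Mathlib
import Cfsg.Agent.Lib.Perm.Sharp2
import Cfsg.Agent.Lib.Perm.MultiTrans

set_option autoImplicit false

/-!
Regular normal subgroups of multiply primitive groups; invariant equivalence relations of primitive
actions.
-/

namespace CfsgLib.Perm

open MulAction SubMulAction
open scoped Pointwise

universe u v

variable {G : Type u} {X : Type v} [Group G] [MulAction G X]

/-- An invariant equivalence relation of a primitive action is trivial or universal. -/
theorem equiv_trivial_or_universal [IsPreprimitive G X] (r : X → X → Prop) (hr : Equivalence r)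
    (hG : ∀ (g : G) x y, r x y → r (g • x) (g • y)) :
    (∀ x y, r x y → x = y) ∨ ∀ x y, r x y := by
  by_cases h : ∀ x y, r x y → x = y
  · exact Or.inl h
  right
  push Not at h
  obtain ⟨x, y, hxy, hne⟩ := h
  have hB : IsBlock G {z | r x z} := by
    rw [isBlock_iff_smul_eq_of_nonempty]
    rintro g ⟨_, ⟨z, hz, rfl⟩, hz'⟩
    have h1 : r (g • x) x := hr.trans (hG g _ _ hz) (hr.symm hz')
    ext w
    constructor
    · rintro ⟨u, hu, rfl⟩
      exact hr.trans (hr.symm h1) (hG g _ _ hu)
    · intro hw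
      refine ⟨g⁻¹ • w, ?_, smul_inv_smul _ _⟩
      have := hG g⁻¹ _ _ (hr.trans h1 hw)
      rwa [inv_smul_smul] at this
  rcases hB.subsingleton_or_eq_univ with h | h
  · exact absurd (h (hr.refl x) hxy) hne
  · intro a b
    have ha : a ∈ {z | r x z} := by rw [h]; trivial
    have hb : b ∈ {z | r x z} := by rw [h]; trivial
    exact hr.trans (hr.symm ha) hb

theorem equiv_trivial_or_universal_of_fixing {n : ℕ} (h : IsMultiplyPreprimitive G X n)
    (s : Set X) (hs : s.encard + 1 = n) (r : X → X → Prop) (hr : Equivalence r)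
    (hG : ∀ g : G, (∀ x ∈ s, g • x = x) → ∀ x y, r x y → r (g • x) (g • y)) :
    (∀ x y, x ∉ s → y ∉ s → r x y → x = y) ∨ ∀ x y, x ∉ s → y ∉ s → r x y := by
  have := h.isPreprimitive_ofFixingSubgroup hs
  rcases equiv_trivial_or_universal (G := fixingSubgroup G s) (X := ofFixingSubgroup G s)
    (fun x y => r x y) ⟨fun x => hr.refl _, fun h => hr.symm h, fun h h' => hr.trans h h'⟩
    (fun g x y hxy => hG g (fun z hz => (mem_fixingSubgroup_iff G).mp g.2 z hz) x y hxy) with h | h
  · exact Or.inl fun x y hx hy hxy => congrArg Subtype.val (h ⟨x, hx⟩ ⟨y, hy⟩ hxy)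
  · exact Or.inr fun x y hx hy => h ⟨x, hx⟩ ⟨y, hy⟩

/-- Coordinates for a regular normal subgroup. -/
theorem exists_regular_coord (N : Subgroup G) [hN : N.Normal] (htrans : IsPretransitive N X)
    (hreg : ∀ x : X, stabilizer N x = ⊥) (x₀ : X) :
    ∃ ν : X → G, (∀ y, ν y ∈ N) ∧ (∀ y, ν y • x₀ = y) ∧ (∀ n ∈ N, ν (n • x₀) = n) ∧
      ∀ g : G, g • x₀ = x₀ → ∀ y, ν (g • y) = g * ν y * g⁻¹ := by
  choose ν hν using fun y => exists_smul_eq N x₀ y
  have hu : ∀ n ∈ N, (ν (n • x₀) : G) = n := by
    intro n hn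
    have h1 : (⟨n, hn⟩ : N)⁻¹ * ν (n • x₀) ∈ stabilizer N x₀ := by
      rw [mem_stabilizer_iff, mul_smul, hν, inv_smul_eq_iff]
      rfl
    rw [hreg, Subgroup.mem_bot, inv_mul_eq_one] at h1
    exact (congrArg Subtype.val h1).symm
  refine ⟨fun y => ν y, fun y => (ν y).2, hν, hu, fun g hg y => ?_⟩
  rw [← hu _ (hN.conj_mem _ (ν y).2 g), mul_smul, mul_smul, inv_smul_eq_iff.mpr hg.symm]
  rw [show (ν y : G) • x₀ = y from hν y]

theorem card_eq_of_regular (N : Subgroup G) (htrans : IsPretransitive N X)
    (hreg : ∀ x : X, stabilizer N x = ⊥) [Nonempty X] : Nat.card N = Nat.card X := by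
  obtain ⟨x⟩ := ‹Nonempty X›
  rw [← index_stabilizer_of_transitive N x, hreg, Subgroup.index_bot]

theorem two_primitive_regular_normal [Finite X] (hX : 2 ≤ Nat.card X)
    (h2 : IsMultiplyPreprimitive G X 2) (N : Subgroup G) [N.Normal]
    (htrans : IsPretransitive N X) (hreg : ∀ x : X, stabilizer N x = ⊥) :
    Nat.card X = 3 ∨ ∀ n ∈ N, n ^ 2 = 1 := by
  have : Nontrivial X := Finite.one_lt_card_iff_nontrivial.mp hX
  obtain ⟨x₀⟩ : Nonempty X := inferInstance
  obtain ⟨ν, h1, h2', h3, h4⟩ := exists_regular_coord N htrans hreg x₀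
  have hinj : Function.Injective ν := fun y z h => by rw [← h2' y, h, h2']
  rcases equiv_trivial_or_universal_of_fixing h2 {x₀} (by simp; rfl)
    (fun y z => ν y = ν z ∨ ν y = (ν z)⁻¹)
    ⟨fun _ => Or.inl rfl, fun h => h.elim (fun h => Or.inl h.symm) fun h => Or.inr (by simp [h]),
      by rintro x y z (h | h) (h' | h') <;> simp [h, h']⟩
    (fun g hg y z h => by
      rw [h4 g (hg x₀ rfl), h4 g (hg x₀ rfl)]
      rcases h with h | h
      · exact Or.inl (by rw [h])
      · exact Or.inr (by rw [h]; group)) with h | h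
  · right
    intro n hn
    by_cases hn1 : n = 1
    · simp [hn1]
    have hne : ∀ m ∈ N, m ≠ 1 → m • x₀ ∉ ({x₀} : Set X) := by
      intro m hm hm1 hx
      apply hm1
      rw [← h3 m hm, show m • x₀ = x₀ from hx]
      simpa using h3 1 (one_mem _)
    have := h (n • x₀) (n⁻¹ • x₀) (hne n hn hn1) (hne _ (inv_mem hn) (inv_ne_one.mpr hn1))
      (Or.inr (by rw [h3 n hn, h3 _ (inv_mem hn), inv_inv]))
    have h5 := congrArg ν this
    rw [h3 n hn, h3 _ (inv_mem hn)] at h5
    rw [sq]
    nth_rewrite 1 [h5]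
    simp
  · obtain ⟨y, hy⟩ := exists_ne x₀
    have hsub : (Set.univ : Set X) ⊆ {x₀, y, (ν y)⁻¹ • x₀} := by
      intro z _
      by_cases hz : z = x₀
      · simp [hz]
      rcases h z y hz hy with h5 | h5
      · simp [hinj h5]
      · have : z = (ν y)⁻¹ • x₀ := by rw [← h5, h2']
        simp [this]
    have h6 := Set.ncard_le_ncard hsub
    rw [Set.ncard_univ] at h6
    have h7 : ({x₀, y, (ν y)⁻¹ • x₀} : Set X).ncard ≤ 3 :=
      (Set.ncard_insert_le _ _).trans (Nat.succ_le_succ ((Set.ncard_insert_le _ _).trans (by simp)))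
    by_cases h8 : Nat.card X = 3
    · exact Or.inl h8
    · right
      intro n hn
      have h9 : Nat.card N = 2 := by rw [card_eq_of_regular N htrans hreg]; omega
      have := pow_card_eq_one' (x := (⟨n, hn⟩ : N))
      rw [h9] at this
      exact congrArg Subtype.val this

theorem comm_of_sq_eq_one {N : Subgroup G} (h : ∀ n ∈ N, n ^ 2 = 1) {a b : G} (ha : a ∈ N)
    (hb : b ∈ N) : a * b = b * a := by
  have hinv : ∀ n ∈ N, n⁻¹ = n := fun n hn => by
    rw [inv_eq_iff_mul_eq_one, ← sq, h n hn]
  rw [← hinv _ (mul_mem ha hb), mul_inv_rev, hinv a ha, hinv b hb]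

theorem three_primitive_regular_normal [Finite X] (hX : 3 ≤ Nat.card X)
    (h3 : IsMultiplyPreprimitive G X 3) (N : Subgroup G) [N.Normal]
    (htrans : IsPretransitive N X) (hreg : ∀ x : X, stabilizer N x = ⊥) :
    Nat.card X = 3 ∨ Nat.card X = 4 := by
  have h2 : IsMultiplyPreprimitive G X 2 := isMultiplyPreprimitive_of_le G X h3 (by omega) (by
    rw [ENat.card_eq_coe_natCard]; exact_mod_cast hX)
  rcases two_primitive_regular_normal (by omega) h2 N htrans hreg with h | hsq
  · exact Or.inl h
  have : Nontrivial X := Finite.one_lt_card_iff_nontrivial.mp (by omega)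
  obtain ⟨x₀, x₁, hx⟩ := exists_pair_ne X
  obtain ⟨ν, h1, h2', h3', h4⟩ := exists_regular_coord N htrans hreg x₀
  have hinj : Function.Injective ν := fun y z h => by rw [← h2' y, h, h2']
  have haa : ν x₁ * ν x₁ = 1 := by rw [← sq, hsq _ (h1 _)]
  have hν0 : ν x₀ = 1 := by simpa using h3' 1 (one_mem _)
  obtain ⟨y, hy⟩ : ∃ y, y ∉ ({x₀, x₁} : Set X) := by
    by_contra hcon
    push Not at hcon
    have := Set.ncard_le_ncard (fun z _ => hcon z : (Set.univ : Set X) ⊆ {x₀, x₁})
    rw [Set.ncard_univ, Set.ncard_pair hx] at this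
    omega
  rcases equiv_trivial_or_universal_of_fixing h3 {x₀, x₁} (by rw [Set.encard_pair hx]; rfl)
    (fun y z => ν y = ν z ∨ ν y = ν x₁ * ν z)
    ⟨fun _ => Or.inl rfl, fun h => h.elim (fun h => Or.inl h.symm) fun h => Or.inr (by
        rw [h, ← mul_assoc, haa, one_mul]),
      by rintro x y z (h | h) (h' | h') <;> simp [h, h', ← mul_assoc, haa]⟩
    (fun g hg y z h => by
      have e0 := hg x₀ (by simp)
      have e1 := h4 g e0 x₁
      rw [hg x₁ (by simp)] at e1
      rw [h4 g e0, h4 g e0]
      rcases h with h | h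
      · exact Or.inl (by rw [h])
      · refine Or.inr ?_
        rw [h]
        conv_rhs => rw [e1]
        group) with h | h
  · exfalso
    have hm : ν x₁ * ν y ∈ N := mul_mem (h1 _) (h1 _)
    have := h ((ν x₁ * ν y) • x₀) y (by
      rintro (h5 | h5)
      · have h6 := congrArg ν h5
        rw [h3' _ hm, hν0, ← haa, mul_right_inj] at h6
        exact hy (Or.inr (hinj h6))
      · have h6 := congrArg ν (show _ = x₁ from h5)
        rw [h3' _ hm, mul_eq_left, ← hν0] at h6
        exact hy (Or.inl (hinj h6))) hy (Or.inr (h3' _ hm))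
    have h6 := congrArg ν this
    rw [h3' _ hm, mul_eq_right, ← hν0] at h6
    exact hx (hinj h6).symm
  · have hsub : (Set.univ : Set X) ⊆ {x₀, x₁, y, (ν x₁ * ν y) • x₀} := by
      intro z _
      by_cases hz : z ∈ ({x₀, x₁} : Set X)
      · rcases hz with hz | hz
        · simp [hz]
        · simp [show z = x₁ from hz]
      rcases h z y hz hy with h5 | h5
      · simp [hinj h5]
      · have : z = (ν x₁ * ν y) • x₀ := by rw [← h5, h2']
        simp [this]
    have h6 := Set.ncard_le_ncard hsub
    rw [Set.ncard_univ] at h6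
    have h7 : ({x₀, x₁, y, (ν x₁ * ν y) • x₀} : Set X).ncard ≤ 4 :=
      (Set.ncard_insert_le _ _).trans (Nat.succ_le_succ ((Set.ncard_insert_le _ _).trans
        (Nat.succ_le_succ ((Set.ncard_insert_le _ _).trans (by simp)))))
    omega

/-- In a `k`-primitive faithful action that is not the full symmetric group, a non-trivial
non-regular normal subgroup is `k`-transitive. -/
theorem k_primitive_nonregular_normal (k : ℕ) : ∀ {G : Type u} {X : Type v} [Group G]
    [MulAction G X] [Finite X] [FaithfulSMul G X], k + 1 ≤ Nat.card X →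
    IsMultiplyPreprimitive G X (k + 1) → ¬ IsMultiplyPretransitive G X (Nat.card X - 1) →
    ∀ (H : Subgroup G) [H.Normal], (∃ a : X, stabilizer H a ≠ ⊥) →
    IsMultiplyPretransitive H X (k + 1) := by
  have base : ∀ {G : Type u} {X : Type v} [Group G] [MulAction G X] [FaithfulSMul G X],
      IsPreprimitive G X → ∀ (H : Subgroup G) [H.Normal], H ≠ ⊥ → IsPretransitive H X := by
    intro G X _ _ _ hG H _ hH
    apply IsQuasiPreprimitive.isPretransitive_of_normal
    intro hfix
    apply hH
    rw [eq_bot_iff]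
    intro h hh
    rw [Subgroup.mem_bot]
    apply eq_of_smul_eq_smul (α := X)
    intro x
    have : x ∈ fixedPoints H X := by rw [hfix]; trivial
    rw [one_smul]
    exact this ⟨h, hh⟩
  have hne : ∀ {G : Type u} {X : Type v} [Group G] [MulAction G X] (H : Subgroup G) (a : X),
      stabilizer H a ≠ ⊥ → ∃ h ∈ H, h ≠ 1 ∧ h • a = a := by
    intro G X _ _ H a ha
    obtain ⟨⟨h, hh⟩, h1⟩ := Subgroup.ne_bot_iff_exists_ne_one.mp ha
    exact ⟨h, h.2, fun e => h1 (Subtype.ext (Subtype.ext e)), hh⟩
  induction k with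
  | zero =>
    intro G X _ _ _ _ _ hG _ H _ ⟨a, ha⟩
    obtain ⟨h, hh, h1, -⟩ := hne H a ha
    rw [zero_add, is_one_pretransitive_iff]
    exact base ((is_one_preprimitive_iff G X).mp hG) H
      (fun e => h1 (by rw [e] at hh; exact hh))
  | succ k ih =>
    intro G X _ _ _ _ hk hG htop H hHn ⟨a, ha⟩
    obtain ⟨h, hh, h1, hha⟩ := hne H a ha
    have hkX : ((k + 1 + 1 : ℕ) : ℕ∞) ≤ ENat.card X := by
      rw [ENat.card_eq_coe_natCard]; exact_mod_cast hk
    have hG1 : IsPreprimitive G X := (is_one_preprimitive_iff G X).mp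
      (isMultiplyPreprimitive_of_le G X hG (by omega) hkX)
    have hHt : IsPretransitive H X := base hG1 H (fun e => h1 (by rw [e] at hh; exact hh))
    have hGa : IsMultiplyPreprimitive (stabilizer G a) (ofStabilizer G a) (k + 1) :=
      isMultiplyPreprimitive_ofStabilizer G X
    have hcard := nat_card_ofStabilizer_add_one_eq (G := G) a
    have hfaith : FaithfulSMul (stabilizer G a) (ofStabilizer G a) := by
      constructor
      intro g g' hg
      apply Subtype.ext
      apply eq_of_smul_eq_smul (α := X)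
      intro x
      by_cases hx : x = a
      · rw [hx, show (g : G) • a = a from g.2, show (g' : G) • a = a from g'.2]
      · exact congrArg Subtype.val (hg ⟨x, hx⟩)
    have lift : ∀ n, IsMultiplyPretransitive (H.subgroupOf (stabilizer G a)) (ofStabilizer G a) n →
        IsMultiplyPretransitive H X (n + 1) := by
      intro n hn
      rw [ofStabilizer.isMultiplyPretransitive (a := a), isMultiplyPretransitive_iff_forall]
      intro x y
      obtain ⟨g, hg⟩ := isMultiplyPretransitive_iff_forall.mp hn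
        ⟨fun i => ⟨(x i).1, (x i).2⟩, fun i j hij => x.injective (Subtype.ext
          (congrArg Subtype.val hij))⟩
        ⟨fun i => ⟨(y i).1, (y i).2⟩, fun i j hij => y.injective (Subtype.ext
          (congrArg Subtype.val hij))⟩
      exact ⟨⟨⟨g.1.1, g.2⟩, g.1.2⟩, fun i => Subtype.ext (congrArg Subtype.val (hg i))⟩
    by_cases hreg : ∃ b : ofStabilizer G a, stabilizer (H.subgroupOf (stabilizer G a)) b ≠ ⊥
    · refine lift _ (ih (by omega) hGa (fun hcon => htop ?_) _ hreg)
      have : Nat.card X - 1 = (Nat.card (ofStabilizer G a) - 1).succ := by omega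
      rw [this, ofStabilizer.isMultiplyPretransitive (a := a)]
      exact hcon
    push Not at hreg
    have hHa : IsPretransitive (H.subgroupOf (stabilizer G a)) (ofStabilizer G a) := by
      refine base ((is_one_preprimitive_iff _ _).mp (isMultiplyPreprimitive_of_le _ _ hGa
        (by omega) (by rw [ENat.card_eq_coe_natCard]; exact_mod_cast (by omega)))) _ ?_
      intro e
      have : (⟨h, hha⟩ : stabilizer G a) ∈ H.subgroupOf (stabilizer G a) := hh
      rw [e] at this
      exact h1 (congrArg Subtype.val this)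
    have h2 : IsMultiplyPretransitive H X 2 := lift 1 (is_one_pretransitive_iff.mpr hHa)
    rcases Nat.eq_zero_or_pos k with rfl | hk0
    · exact h2
    exfalso
    have hS : IsSharp2 H X := by
      refine ⟨fun hab hcd => is_two_pretransitive_iff.mp h2 hab hcd, ?_⟩
      intro u b c hbc hb hc
      obtain ⟨g, hg⟩ := exists_smul_eq H b a
      have h3 : (g * u * g⁻¹) • a = a := by
        rw [mul_smul, mul_smul, inv_smul_eq_iff.mpr hg.symm, hb, hg]
      have h4 : g • c ≠ a := by rw [← hg]; simpa using hbc.symm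
      have h5 : (⟨⟨(g * u * g⁻¹ : H), h3⟩, (g * u * g⁻¹).2⟩ : H.subgroupOf (stabilizer G a)) ∈
          stabilizer (H.subgroupOf (stabilizer G a)) (⟨g • c, h4⟩ : ofStabilizer G a) := by
        apply Subtype.ext
        show (g * u * g⁻¹) • g • c = g • c
        rw [mul_smul, mul_smul, inv_smul_smul, hc]
      rw [hreg, Subgroup.mem_bot] at h5
      have h6 : g * u * g⁻¹ = 1 := Subtype.ext (congrArg (fun z => z.1.1) h5)
      simpa using h6
    let K : Subgroup G := hS.kernel.map H.subtype
    have hK : K.Normal := by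
      constructor
      rintro _ ⟨y, hy, rfl⟩ g
      refine ⟨⟨g * y * g⁻¹, hHn.conj_mem _ y.2 g⟩, ?_, rfl⟩
      rcases hy with rfl | hy
      · left
        apply Subtype.ext
        simp
      · exact Or.inr (fpf_conj (y := (y : G)) hy g)
    have h3 : IsMultiplyPreprimitive G X 3 := isMultiplyPreprimitive_of_le G X hG (by omega) hkX
    have h4 := three_primitive_regular_normal (by omega) h3 K ⟨fun b c => by
      obtain ⟨y, hy, hy'⟩ := hS.kernel_exists_smul_eq b c
      exact ⟨⟨y, y, hy, rfl⟩, hy'⟩⟩ (fun x => by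
        rw [eq_bot_iff]
        rintro ⟨_, y, hy, rfl⟩ hx
        rw [Subgroup.mem_bot]
        apply Subtype.ext
        have h6 : y = 1 := hS.kernel_eq_one hy (a := x) hx
        simp [h6])
    have h5 := h3.isMultiplyPretransitive
    exact htop (isMultiplyPretransitive_of_le (n := 3) (by omega) (by omega))

end CfsgLib.Perm
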