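import Mathlib

set_option autoImplicit false

/-!
A certificate for a subgroup of `GL 2` to act regularly on the non-zero vectors.
-/

namespace CfsgLib.Perm

open Matrix

theorem regular_of_table {R : Type*} [CommRing R] [Finite R] [Nontrivial R]
    (S : Set (GeneralLinearGroup (Fin 2) R)) (c0 c1 : R → R → R) (d : R → R → ℕ)
    (h0 : c0 1 0 = 0 ∧ c1 1 0 = 1)
    (h1 : ∀ g ∈ S, ∀ x y : R, (x ≠ 0 ∨ y ≠ 0) →
      c0 (g.1 0 0 * x + g.1 0 1 * y) (g.1 1 0 * x + g.1 1 1 * y) =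
        g.1 0 0 * c0 x y + g.1 0 1 * c1 x y ∧
      c1 (g.1 0 0 * x + g.1 0 1 * y) (g.1 1 0 * x + g.1 1 1 * y) =
        g.1 1 0 * c0 x y + g.1 1 1 * c1 x y)
    (h2 : ∀ x y : R, (x ≠ 0 ∨ y ≠ 0) → (x = 1 ∧ y = 0) ∨
      ∃ g ∈ S, d (g.1 0 0 * x + g.1 0 1 * y) (g.1 1 0 * x + g.1 1 1 * y) < d x y) :
    Nat.card (Subgroup.closure S) = Nat.card R ^ 2 - 1 ∧
      ∀ v w : Fin 2 → R, v ≠ 0 → w ≠ 0 → ∃! h : Subgroup.closure S,
        Matrix.mulVec ((h : GeneralLinearGroup (Fin 2) R) : Matrix (Fin 2) (Fin 2) R) v = w := by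
  let c : (Fin 2 → R) → (Fin 2 → R) := fun v => ![c0 (v 0) (v 1), c1 (v 0) (v 1)]
  have hne : ∀ v : Fin 2 → R, v ≠ 0 → v 0 ≠ 0 ∨ v 1 ≠ 0 := by
    intro v hv
    by_contra hcon
    push Not at hcon
    apply hv
    ext i
    fin_cases i
    · exact hcon.1
    · exact hcon.2
  have hmv : ∀ (g : GeneralLinearGroup (Fin 2) R) (v : Fin 2 → R) (i : Fin 2),
      (g.1 *ᵥ v) i = g.1 i 0 * v 0 + g.1 i 1 * v 1 := by
    intro g v i
    simp [Matrix.mulVec, dotProduct, Fin.sum_univ_two]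
  have hmul : ∀ (g h : GeneralLinearGroup (Fin 2) R) (v : Fin 2 → R),
      (g * h).1 *ᵥ v = g.1 *ᵥ (h.1 *ᵥ v) := by
    intro g h v
    rw [Units.val_mul, Matrix.mulVec_mulVec]
  have hinv : ∀ (g : GeneralLinearGroup (Fin 2) R) (v : Fin 2 → R), (g⁻¹).1 *ᵥ (g.1 *ᵥ v) = v := by
    intro g v
    rw [← hmul, inv_mul_cancel, Units.val_one, Matrix.one_mulVec]
  have hinv' : ∀ (g : GeneralLinearGroup (Fin 2) R) (v : Fin 2 → R), g.1 *ᵥ ((g⁻¹).1 *ᵥ v) = v := by
    intro g v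
    rw [← hmul, mul_inv_cancel, Units.val_one, Matrix.one_mulVec]
  have hnz : ∀ (g : GeneralLinearGroup (Fin 2) R) (v : Fin 2 → R), v ≠ 0 → g.1 *ᵥ v ≠ 0 := by
    intro g v hv h
    apply hv
    rw [← hinv g v, h, Matrix.mulVec_zero]
  have hc : ∀ g ∈ Subgroup.closure S, ∀ v : Fin 2 → R, v ≠ 0 → c (g.1 *ᵥ v) = g.1 *ᵥ c v := by
    intro g hg
    induction hg using Subgroup.closure_induction with
    | mem g hg =>
      intro v hv
      have := h1 g hg (v 0) (v 1) (hne v hv)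
      ext i
      fin_cases i
      · simp only [c, hmv]
        exact this.1
      · simp only [c, hmv]
        exact this.2
    | one => intro v _; simp
    | mul g h _ _ hg hh =>
      intro v hv
      rw [hmul, hmul, hg _ (hnz h v hv), hh v hv]
    | inv g _ hg =>
      intro v hv
      have := hg _ (hnz g⁻¹ v hv)
      rw [hinv'] at this
      rw [this, hinv]
  let e : Fin 2 → R := ![1, 0]
  have he : e ≠ 0 := fun h => one_ne_zero (congrFun h 0)
  have hstab : ∀ g ∈ Subgroup.closure S, g.1 *ᵥ e = e → g = 1 := by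
    intro g hg hge
    have h3 := hc g hg e he
    rw [hge] at h3
    have h4 : c e = ![0, 1] := by simp [c, e, h0.1, h0.2]
    rw [h4] at h3
    have a0 := congrFun hge 0
    have a1 := congrFun hge 1
    have b0 := congrFun h3 0
    have b1 := congrFun h3 1
    rw [hmv] at a0 a1 b0 b1
    simp [e] at a0 a1 b0 b1
    apply Units.ext
    ext i j
    fin_cases i <;> fin_cases j <;> simp [a0, a1, ← b0, ← b1]
  have horb : ∀ (n : ℕ) (v : Fin 2 → R), v ≠ 0 → d (v 0) (v 1) = n →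
      ∃ g ∈ Subgroup.closure S, g.1 *ᵥ e = v := by
    intro n
    induction n using Nat.strong_induction_on with
    | _ n ih =>
      intro v hv hd
      rcases h2 (v 0) (v 1) (hne v hv) with h | ⟨g, hg, h⟩
      · refine ⟨1, one_mem _, ?_⟩
        ext i
        fin_cases i <;> simp [e, h.1, h.2]
      · rw [← hmv, ← hmv, hd] at h
        obtain ⟨k, hk, hk'⟩ := ih _ h _ (hnz g v hv) rfl
        exact ⟨g⁻¹ * k, mul_mem (inv_mem (Subgroup.subset_closure hg)) hk, by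
          rw [hmul, hk', hinv]⟩
  have huniq : ∀ g ∈ Subgroup.closure S, ∀ k ∈ Subgroup.closure S, ∀ v : Fin 2 → R, v ≠ 0 →
      g.1 *ᵥ v = k.1 *ᵥ v → g = k := by
    intro g hg k hk v hv h
    obtain ⟨u, hu, rfl⟩ := horb _ v hv rfl
    have := hstab (u⁻¹ * (k⁻¹ * (g * u))) (mul_mem (inv_mem hu) (mul_mem (inv_mem hk) (mul_mem hg hu)))
      (by rw [hmul, hmul, hmul, h, hinv, hinv])
    rw [inv_mul_eq_one, eq_inv_mul_iff_mul_eq, mul_left_inj] at this
    exact this.symm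
  constructor
  · have e1 : Subgroup.closure S ≃ ({0}ᶜ : Set (Fin 2 → R)) := by
      refine Equiv.ofBijective (fun g => ⟨g.1.1 *ᵥ e, hnz _ _ he⟩) ⟨?_, ?_⟩
      · intro g k h
        exact Subtype.ext (huniq _ g.2 _ k.2 e he (congrArg Subtype.val h))
      · rintro ⟨v, hv⟩
        obtain ⟨g, hg, hg'⟩ := horb _ v hv rfl
        exact ⟨⟨g, hg⟩, Subtype.ext hg'⟩
    rw [Nat.card_congr e1, Nat.card_coe_set_eq]
    have h3 := Set.ncard_add_ncard_compl ({0} : Set (Fin 2 → R))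
    rw [Set.ncard_singleton, Nat.card_fun, Nat.card_fin] at h3
    omega
  · intro v w hv hw
    obtain ⟨g, hg, rfl⟩ := horb _ v hv rfl
    obtain ⟨k, hk, rfl⟩ := horb _ w hw rfl
    have h3 : (k * g⁻¹).1 *ᵥ (g.1 *ᵥ e) = k.1 *ᵥ e := by rw [hmul, hinv]
    refine ⟨⟨k * g⁻¹, mul_mem hk (inv_mem hg)⟩, h3, fun u hu => ?_⟩
    exact Subtype.ext (huniq _ u.2 _ (mul_mem hk (inv_mem hg)) _ hv (by rw [h3]; exact hu))

end CfsgLib.Perm
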